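import Mathlib

set_option autoImplicit false

/-!
Lie rings graded by `ZMod p` with trivial zero component (Kreknin, Kostrikin).
-/

namespace Cfsg.Agent.HKK

variable {M : Type*} [LieRing M]

section fam
variable {I : Type*} [AddCommMonoid I]

/-- bracket of two families of additive subgroups -/
def fb (B C : I → AddSubgroup M) (r : I) : AddSubgroup M :=
  AddSubgroup.closure {z | ∃ u v x y, u + v = r ∧ x ∈ B u ∧ y ∈ C v ∧ ⁅x, y⁆ = z}

lemma lie_mem_fb {B C : I → AddSubgroup M} {u v : I} {x y : M} (hx : x ∈ B u) (hy : y ∈ C v) :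
    ⁅x, y⁆ ∈ fb B C (u + v) := AddSubgroup.subset_closure ⟨u, v, x, y, rfl, hx, hy, rfl⟩

lemma fb_le {B C : I → AddSubgroup M} {r : I} {D : AddSubgroup M}
    (h : ∀ u v x y, u + v = r → x ∈ B u → y ∈ C v → ⁅x, y⁆ ∈ D) : fb B C r ≤ D := by
  unfold fb
  rw [AddSubgroup.closure_le]
  rintro z ⟨u, v, x, y, huv, hx, hy, rfl⟩
  exact h u v x y huv hx hy

lemma fb_mono {B C B' C' : I → AddSubgroup M} (h1 : ∀ i, B i ≤ B' i) (h2 : ∀ i, C i ≤ C' i) (r : I) :
    fb B C r ≤ fb B' C' r :=
  fb_le fun u v _ _ huv hx hy => huv ▸ lie_mem_fb (h1 u hx) (h2 v hy)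

/-- graded families -/
structure Gr (A : I → AddSubgroup M) : Prop where
  lie : ∀ u v x y, x ∈ A u → y ∈ A v → ⁅x, y⁆ ∈ A (u + v)
  zero : A 0 = ⊥

lemma Gr.fb_le {A : I → AddSubgroup M} (H : Gr A) (r : I) : fb A A r ≤ A r :=
  HKK.fb_le fun u v _ _ huv hx hy => huv ▸ H.lie u v _ _ hx hy

lemma Gr.der {A : I → AddSubgroup M} (H : Gr A) : Gr (fb A A) where
  lie u v x y hx hy := lie_mem_fb (H.fb_le u hx) (H.fb_le v hy)
  zero := by
    rw [eq_bot_iff, ← H.zero]
    exact H.fb_le 0

/-- derived families -/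
def Dit (m : ℕ) (A : I → AddSubgroup M) : I → AddSubgroup M := (fun B => fb B B)^[m] A

lemma Dit_succ' (m : ℕ) (A : I → AddSubgroup M) : Dit (m + 1) A = fb (Dit m A) (Dit m A) := by
  unfold Dit
  rw [Function.iterate_succ_apply']

lemma Dit_add (m n : ℕ) (A : I → AddSubgroup M) : Dit (m + n) A = Dit m (Dit n A) := by
  unfold Dit
  rw [Function.iterate_add_apply]

lemma Dit_succ (m : ℕ) (A : I → AddSubgroup M) : Dit (m + 1) A = Dit m (fb A A) := by
  unfold Dit
  rw [Function.iterate_succ_apply]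

lemma Gr.dit {A : I → AddSubgroup M} (H : Gr A) (m : ℕ) : Gr (Dit m A) ∧ ∀ i, Dit m A i ≤ A i := by
  induction m with
  | zero => exact ⟨H, fun i => le_rfl⟩
  | succ m ih =>
    rw [Dit_succ']
    exact ⟨ih.1.der, fun i => (ih.1.fb_le i).trans (ih.2 i)⟩

/-- iterated brackets with `A` -/
def lcs (A B : I → AddSubgroup M) : ℕ → I → AddSubgroup M
  | 0 => B
  | n + 1 => fb (lcs A B n) A

lemma lcs_add (A B : I → AddSubgroup M) (m n : ℕ) : lcs A B (m + n) = lcs A (lcs A B m) n := by
  induction n with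
  | zero => rfl
  | succ n ih => rw [← Nat.add_assoc]; unfold lcs; rw [ih]

lemma lcs_one_add (A : I → AddSubgroup M) (n : ℕ) : lcs A A (1 + n) = lcs A (fb A A) n := by
  rw [lcs_add]; rfl

lemma lcs_mono {A B B' : I → AddSubgroup M} (h : ∀ i, B i ≤ B' i) (n : ℕ) (i : I) :
    lcs A B n i ≤ lcs A B' n i := by
  induction n generalizing i with
  | zero => exact h i
  | succ n ih => exact fb_mono ih (fun _ => le_rfl) i

/-- ideals -/
def Idl (A C : I → AddSubgroup M) : Prop := ∀ u v x y, x ∈ C u → y ∈ A v → ⁅x, y⁆ ∈ C (u + v)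

lemma Idl.fb {A C K : I → AddSubgroup M} (h1 : Idl A C) (h2 : Idl A K) : Idl A (fb C K) := by
  intro r v x y hx hy
  unfold HKK.fb at hx
  induction hx using AddSubgroup.closure_induction with
  | mem z hz =>
    obtain ⟨u, w, a, b, huw, ha, hb, rfl⟩ := hz
    have e : ⁅⁅a, b⁆, y⁆ = ⁅⁅a, y⁆, b⁆ + ⁅a, ⁅b, y⁆⁆ := by
      rw [lie_lie, sub_eq_add_neg, lie_skew, add_comm]
    rw [e]
    have i1 : r + v = (u + v) + w := by rw [← huw]; abel
    have i2 : r + v = u + (w + v) := by rw [← huw]; abel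
    refine AddSubgroup.add_mem _ ?_ ?_
    · rw [i1]; exact lie_mem_fb (h1 _ _ _ _ ha hy) hb
    · rw [i2]; exact lie_mem_fb ha (h2 _ _ _ _ hb hy)
  | zero => rw [zero_lie]; exact AddSubgroup.zero_mem _
  | add a b _ _ h1 h2 => rw [add_lie]; exact AddSubgroup.add_mem _ h1 h2
  | neg a _ h => rw [neg_lie]; exact AddSubgroup.neg_mem _ h

lemma Idl.lcs {A C : I → AddSubgroup M} (h1 : Idl A C) (n : ℕ) : Idl A (lcs C C n) := by
  induction n with
  | zero => exact h1
  | succ n ih => exact ih.fb h1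

lemma Gr.idl {A : I → AddSubgroup M} (H : Gr A) : Idl A A := H.lie

end fam

section kreknin

variable {p : ℕ} [Fact p.Prime]

/-- homogeneous elements of the subring generated by the components of index at least `k` -/
inductive HC (A : ZMod p → AddSubgroup M) (k : ℕ) : ZMod p → M → Prop
  | base {i : ZMod p} {x : M} : k ≤ i.val → x ∈ A i → HC A k i x
  | lie {i j : ZMod p} {x y : M} : HC A k i x → HC A k j y → HC A k (i + j) ⁅x, y⁆
  | zero {i : ZMod p} : HC A k i 0
  | add {i : ZMod p} {x y : M} : HC A k i x → HC A k i y → HC A k i (x + y)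
  | neg {i : ZMod p} {x : M} : HC A k i x → HC A k i (-x)

variable {A : ZMod p → AddSubgroup M}

lemma HC.mem (H : Gr A) {k : ℕ} {i : ZMod p} {x : M} (h : HC A k i x) : x ∈ A i := by
  induction h with
  | base _ h => exact h
  | lie _ _ h1 h2 => exact H.lie _ _ _ _ h1 h2
  | zero => exact AddSubgroup.zero_mem _
  | add _ _ h1 h2 => exact AddSubgroup.add_mem _ h1 h2
  | neg _ h => exact AddSubgroup.neg_mem _ h

lemma HC.mono {A B : ZMod p → AddSubgroup M} {k l : ℕ}
    (h : ∀ i x, k ≤ i.val → x ∈ A i → HC B l i x) {i : ZMod p} {x : M} (hx : HC A k i x) : HC B l i x := by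
  induction hx with
  | base h1 h2 => exact h _ _ h1 h2
  | lie _ _ h1 h2 => exact h1.lie h2
  | zero => exact HC.zero
  | add _ _ h1 h2 => exact h1.add h2
  | neg _ h => exact h.neg

lemma HC.top {k : ℕ} (hk : p ≤ k) {i : ZMod p} {x : M} (hx : HC A k i x) : x = 0 := by
  induction hx with
  | @base i x h1 h2 => exact absurd (ZMod.val_lt i) (by omega)
  | lie _ _ h1 h2 => rw [h1, zero_lie]
  | zero => rfl
  | add _ _ h1 h2 => rw [h1, h2, add_zero]
  | neg _ h => rw [h, neg_zero]

/-- sums of brackets whose second factor has index at least `k` -/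
def SS (A : ZMod p → AddSubgroup M) (k : ℕ) (r : ZMod p) : AddSubgroup M :=
  AddSubgroup.closure {z | ∃ w t a b, w + t = r ∧ k ≤ t.val ∧ a ∈ A w ∧ b ∈ A t ∧ ⁅a, b⁆ = z}

lemma HC.key (H : Gr A) {k : ℕ} {v : ZMod p} {y : M} (hy : HC A k v y) :
    ∀ u x, x ∈ A u → ⁅x, y⁆ ∈ SS A k (u + v) := by
  induction hy with
  | base h1 h2 =>
    intro u x hx
    exact AddSubgroup.subset_closure ⟨u, _, x, _, rfl, h1, hx, h2, rfl⟩
  | @lie i j y1 y2 g1 g2 h1 h2 =>
    intro u x hx
    have e : ⁅x, ⁅y1, y2⁆⁆ = ⁅⁅x, y1⁆, y2⁆ - ⁅⁅x, y2⁆, y1⁆ := by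
      rw [leibniz_lie, sub_eq_add_neg, lie_skew]
    rw [e]
    refine AddSubgroup.sub_mem _ ?_ ?_
    · rw [← add_assoc]
      exact h2 _ _ (H.lie _ _ _ _ hx (g1.mem H))
    · rw [add_comm i j, ← add_assoc]
      exact h1 _ _ (H.lie _ _ _ _ hx (g2.mem H))
  | zero => intro u x _; rw [lie_zero]; exact AddSubgroup.zero_mem _
  | add _ _ h1 h2 =>
    intro u x hx
    rw [lie_add]
    exact AddSubgroup.add_mem _ (h1 u x hx) (h2 u x hx)
  | neg _ h =>
    intro u x hx
    rw [lie_neg]
    exact AddSubgroup.neg_mem _ (h u x hx)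

lemma SS_hc (H : Gr A) {k : ℕ} (hk : k < p) {z : M} (hz : z ∈ SS A k (k : ZMod p)) :
    HC A (k + 1) (k : ZMod p) z := by
  unfold SS at hz
  induction hz using AddSubgroup.closure_induction with
  | mem z hz =>
    obtain ⟨w, t, a, b, hwt, ht, ha, hb, rfl⟩ := hz
    have hkv : (k : ZMod p).val = k := ZMod.val_cast_of_lt hk
    rcases Nat.eq_or_lt_of_le ht with h1 | h1
    · have h2 : t = (k : ZMod p) := by
        rw [← ZMod.natCast_zmod_val t, ← h1]
      have h3 : w = 0 := by rw [h2] at hwt; simpa using hwt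
      rw [h3, H.zero, AddSubgroup.mem_bot] at ha
      rw [ha, zero_lie]
      exact HC.zero
    · have h2 : k < w.val := by
        by_contra hcon
        push Not at hcon
        have h3 : (w + t).val = k := by rw [hwt, hkv]
        have h4 := ZMod.val_lt t
        rcases lt_or_ge (w.val + t.val) p with h5 | h5
        · rw [ZMod.val_add_of_lt h5] at h3
          omega
        · have := ZMod.val_add_val_of_le h5
          omega
      rw [← hwt]
      exact (HC.base h2 ha).lie (HC.base h1 hb)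
  | zero => exact HC.zero
  | add a b _ _ h1 h2 => exact h1.add h2
  | neg a _ h => exact h.neg

/-- Kreknin's theorem -/
theorem kreknin (k : ℕ) (hk : k < p) : ∀ A : ZMod p → AddSubgroup M, Gr A →
    ∀ i x, x ∈ Dit (2 ^ k - 1) A i → HC A (k + 1) i x := by
  induction k with
  | zero =>
    intro A H i x hx
    have hx' : x ∈ A i := hx
    by_cases hi : i = 0
    · rw [hi, H.zero, AddSubgroup.mem_bot] at hx'
      rw [hx']; exact HC.zero
    · refine HC.base ?_ hx'
      have : i.val ≠ 0 := by rwa [Ne, ZMod.val_eq_zero]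
      omega
  | succ k ih =>
    intro A H i x hx
    have hpow : 1 ≤ 2 ^ k := Nat.one_le_two_pow
    have e1 : 2 ^ (k + 1) - 1 = (2 ^ k - 1) + 2 ^ k := by rw [pow_succ]; omega
    rw [e1, Dit_add] at hx
    have HN := H.dit (2 ^ k)
    refine (ih (by omega) _ HN.1 i x hx).mono ?_
    intro j y hj hy
    rcases Nat.eq_or_lt_of_le hj with h1 | h1
    · have h2 : j = ((k + 1 : ℕ) : ZMod p) := by
        rw [← ZMod.natCast_zmod_val j, ← h1]
      rw [h2]
      apply SS_hc H hk
      have e2 : 2 ^ k = (2 ^ k - 1) + 1 := by omega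
      rw [e2, Dit_succ', h2] at hy
      have HB := H.dit (2 ^ k - 1)
      refine fb_le (D := SS A (k + 1) ((k + 1 : ℕ) : ZMod p)) ?_ hy
      intro u v a b huv ha hb
      rw [← huv]
      exact (ih (by omega) A H v b hb).key H u a (HB.2 u ha)
    · exact HC.base h1 (HN.2 j hy)

theorem kreknin_top (H : Gr A) (i : ZMod p) : Dit (2 ^ (p - 1) - 1) A i = ⊥ := by
  rw [eq_bot_iff]
  intro x hx
  have hp : 1 ≤ p := (Fact.out : p.Prime).one_le
  exact (kreknin (p - 1) (by omega) A H i x hx).top (by omega)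

end kreknin

section kostrikin

variable {p : ℕ} [Fact p.Prime]

/-- subset sums of nonzero residues -/
lemma subset_sums (l : List (ZMod p × M)) (h : ∀ q ∈ l, q.1 ≠ 0) :
    ∃ S : Finset (ZMod p), min p (l.length + 1) ≤ S.card ∧
      ∀ s ∈ S, ∃ l1 l2, l.Perm (l1 ++ l2) ∧ (l1.map Prod.fst).sum = s := by
  classical
  induction l with
  | nil => exact ⟨{0}, by simp, fun s hs => ⟨[], [], by simp, by simpa using (Finset.mem_singleton.1 hs).symm⟩⟩
  | cons d l ih =>
    obtain ⟨S, hS, hS2⟩ := ih fun q hq => h q (List.mem_cons_of_mem _ hq)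
    have hd : d.1 ≠ 0 := h d List.mem_cons_self
    refine ⟨S ∪ S.image (fun s => d.1 + s), ?_, ?_⟩
    · by_contra hcon
      push Not at hcon
      have h1 : S ⊆ S ∪ S.image (fun s => d.1 + s) := Finset.subset_union_left
      have h2 : S ∪ S.image (fun s => d.1 + s) = S := by
        refine (Finset.eq_of_subset_of_card_le h1 ?_).symm
        simp only [List.length_cons] at hcon
        omega
      have h3 : ∀ s ∈ S, d.1 + s ∈ S := fun s hs => by
        rw [← h2]; exact Finset.mem_union_right _ (Finset.mem_image_of_mem _ hs)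
      have hne : S.Nonempty := by
        rw [← Finset.card_pos]
        have := (Fact.out : p.Prime).pos
        omega
      obtain ⟨s0, hs0⟩ := hne
      have h4 : ∀ n : ℕ, n * d.1 + s0 ∈ S := by
        intro n
        induction n with
        | zero => simpa using hs0
        | succ n ihn =>
          have := h3 _ ihn
          have e : ((n + 1 : ℕ) : ZMod p) * d.1 + s0 = d.1 + (n * d.1 + s0) := by push_cast; ring
          rw [e]; exact this
      have h5 : S = Finset.univ := by
        rw [Finset.eq_univ_iff_forall]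
        intro s
        have := h4 ((s - s0) / d.1).val
        rw [ZMod.natCast_zmod_val, div_mul_cancel₀ _ hd, sub_add_cancel] at this
        exact this
      have h6 : S.card = p := by rw [h5, Finset.card_univ, ZMod.card]
      rw [h2] at hcon
      omega
    · intro s hs
      rcases Finset.mem_union.1 hs with h1 | h1
      · obtain ⟨l1, l2, h2, h3⟩ := hS2 s h1
        refine ⟨l1, d :: l2, ?_, h3⟩
        exact (h2.cons d).trans List.perm_middle.symm
      · obtain ⟨s', hs', rfl⟩ := Finset.mem_image.1 h1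
        obtain ⟨l1, l2, h2, h3⟩ := hS2 s' hs'
        exact ⟨d :: l1, l2, h2.cons d, by simp [h3]⟩

/-- left-normed commutators -/
def nc (x : M) (l : List (ZMod p × M)) : M := l.foldl (fun z q => ⁅z, q.2⁆) x

lemma nc_cons (x : M) (q : ZMod p × M) (l : List (ZMod p × M)) : nc x (q :: l) = nc ⁅x, q.2⁆ l := rfl

lemma nc_append (x : M) (l l' : List (ZMod p × M)) : nc x (l ++ l') = nc (nc x l) l' := by
  unfold nc; rw [List.foldl_append]

lemma nc_zero (l : List (ZMod p × M)) : nc (0 : M) l = 0 := by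
  induction l with
  | nil => rfl
  | cons q l ih => rw [nc_cons, zero_lie, ih]

lemma nc_sub (x y : M) (l : List (ZMod p × M)) : nc (x - y) l = nc x l - nc y l := by
  induction l generalizing x y with
  | nil => rfl
  | cons q l ih => rw [nc_cons, nc_cons, nc_cons, sub_lie, ih]

lemma nc_mem {A C : ZMod p → AddSubgroup M} (h : Idl A C) {l : List (ZMod p × M)} (hl : ∀ q ∈ l, q.2 ∈ A q.1)
    {r : ZMod p} {x : M} (hx : x ∈ C r) : nc x l ∈ C (r + (l.map Prod.fst).sum) := by
  induction l generalizing x r with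
  | nil => simpa [nc] using hx
  | cons q l ih =>
    rw [nc_cons, List.map_cons, List.sum_cons, ← add_assoc]
    exact ih (fun q' hq' => hl q' (List.mem_cons_of_mem _ hq')) (h _ _ _ _ hx (hl q List.mem_cons_self))

/-- permutation modulo the next term -/
lemma nc_perm {A C : ZMod p → AddSubgroup M} (H : Gr A) (hC : Idl A C)
    {l l' : List (ZMod p × M)} (hp : l.Perm l') : ∀ (_ : ∀ q ∈ l, q.2 ∈ A q.1)
    (r : ZMod p) (x : M), x ∈ C r → nc x l - nc x l' ∈ fb C (fb A A) (r + (l.map Prod.fst).sum) := by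
  have hI : Idl A (fb C (fb A A)) := hC.fb (H.idl.fb H.idl)
  induction hp with
  | nil => intro _ r x _; rw [sub_self]; exact AddSubgroup.zero_mem _
  | cons q hp ih =>
    intro hl r x hx
    rw [nc_cons, nc_cons, List.map_cons, List.sum_cons, ← add_assoc]
    exact ih (fun q' hq' => hl q' (List.mem_cons_of_mem _ hq')) _ _ (hC _ _ _ _ hx (hl q List.mem_cons_self))
  | swap a b l =>
    intro hl r x hx
    have ha : a.2 ∈ A a.1 := hl a (by simp)
    have hb : b.2 ∈ A b.1 := hl b (by simp)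
    rw [nc_cons, nc_cons, nc_cons, nc_cons, ← nc_sub]
    have e : ⁅⁅x, b.2⁆, a.2⁆ - ⁅⁅x, a.2⁆, b.2⁆ = ⁅x, ⁅b.2, a.2⁆⁆ := by
      rw [leibniz_lie x b.2 a.2, sub_eq_add_neg, lie_skew]
    rw [e]
    have := nc_mem hI (l := l) (fun q' hq' => hl q' (by simp [hq'])) (lie_mem_fb hx (lie_mem_fb hb ha))
    simp only [List.map_cons, List.sum_cons]
    rw [← add_assoc b.1, ← add_assoc]
    exact this
  | trans p1 p2 h1 h2 =>
    intro hl r x hx
    have hs := h1 hl r x hx
    have hs2 := h2 (fun q hq => hl q (p1.mem_iff.2 hq)) r x hx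
    rw [← (p1.map Prod.fst).sum_eq] at hs2
    have := AddSubgroup.add_mem _ hs hs2
    rwa [sub_add_sub_cancel] at this

/-- Kostrikin's step: brackets with `p - 1` elements go down -/
lemma nc_down {A C : ZMod p → AddSubgroup M} (H : Gr A) (hC : Idl A C) (hCA : ∀ i, C i ≤ A i)
    {l : List (ZMod p × M)} (hl : ∀ q ∈ l, q.2 ∈ A q.1) (hlen : l.length = p - 1) {r : ZMod p} {x : M}
    (hx : x ∈ C r) : nc x l ∈ fb C (fb A A) (r + (l.map Prod.fst).sum) := by
  classical
  by_cases h0 : ∀ q ∈ l, q.1 ≠ 0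
  · obtain ⟨S, hS, hS2⟩ := subset_sums l h0
    have hp : 1 ≤ p := (Fact.out : p.Prime).one_le
    have hS3 : S = Finset.univ := by
      apply Finset.eq_univ_of_card
      rw [ZMod.card]
      have := Finset.card_le_univ S
      rw [ZMod.card] at this
      omega
    obtain ⟨l1, l2, h1, h2⟩ := hS2 (-r) (by rw [hS3]; exact Finset.mem_univ _)
    have h3 := nc_perm H hC h1 hl r x hx
    have h4 : nc x (l1 ++ l2) = 0 := by
      rw [nc_append]
      have h5 := nc_mem (C := A) H.idl (l := l1) (fun q hq => hl q (h1.mem_iff.2 (by simp [hq]))) (hCA _ hx)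
      rw [h2, add_neg_cancel, H.zero, AddSubgroup.mem_bot] at h5
      rw [h5, nc_zero]
    rwa [h4, sub_zero] at h3
  · push Not at h0
    obtain ⟨q, hq, hq0⟩ := h0
    obtain ⟨l1, l2, h1⟩ := List.append_of_mem hq
    have h2 := hl q hq
    rw [hq0, H.zero, AddSubgroup.mem_bot] at h2
    have h3 : nc x l = 0 := by
      rw [h1, nc_append, nc_cons, h2, lie_zero, nc_zero]
    rw [h3]
    exact AddSubgroup.zero_mem _

/-- elements of iterated brackets are sums of left-normed commutators -/
lemma lcs_le_of_nc {A C : ZMod p → AddSubgroup M} {D : ZMod p → AddSubgroup M} (n : ℕ)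
    (h : ∀ (r : ZMod p) (x : M) (l : List (ZMod p × M)), (∀ q ∈ l, q.2 ∈ A q.1) → l.length = n → x ∈ C r →
      nc x l ∈ D (r + (l.map Prod.fst).sum)) (i : ZMod p) : lcs A C n i ≤ D i := by
  induction n generalizing D i with
  | zero =>
    intro x hx
    have := h i x [] (by simp) rfl hx
    simpa [nc] using this
  | succ n ih =>
    -- the family of elements whose brackets with `A` lie in `D`
    let E : ZMod p → AddSubgroup M := fun j =>
      { carrier := {x | ∀ v y, y ∈ A v → ⁅x, y⁆ ∈ D (j + v)}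
        zero_mem' := fun v y _ => by rw [zero_lie]; exact AddSubgroup.zero_mem _
        add_mem' := fun {a b} ha hb v y hy => by
          rw [add_lie]; exact AddSubgroup.add_mem _ (ha v y hy) (hb v y hy)
        neg_mem' := fun {a} ha v y hy => by
          rw [neg_lie]; exact AddSubgroup.neg_mem _ (ha v y hy) }
    have h1 : ∀ i, lcs A C n i ≤ E i := by
      intro i
      apply ih
      intro r x l hl hlen hx v y hy
      have := h r x (l ++ [(v, y)]) (by
        intro q hq
        rcases List.mem_append.1 hq with h2 | h2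
        · exact hl q h2
        · rw [List.mem_singleton.1 h2]; exact hy) (by simp [hlen]) hx
      rw [nc_append] at this
      simpa [nc, add_assoc] using this
    refine fb_le ?_
    intro u v x y huv hx hy
    rw [← huv]
    exact h1 u hx v y hy

lemma lcs_down {A C : ZMod p → AddSubgroup M} (H : Gr A) (hC : Idl A C) (hCA : ∀ i, C i ≤ A i) (i : ZMod p) :
    lcs A C (p - 1) i ≤ fb C (fb A A) i :=
  lcs_le_of_nc (D := fb C (fb A A)) (p - 1) (fun _ _ _ hl hlen hx => nc_down H hC hCA hl hlen hx) i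

theorem class_bound (s : ℕ) : ∀ A : ZMod p → AddSubgroup M, Gr A → (∀ i, Dit s A i = ⊥) →
    ∀ i, lcs A A (∑ j ∈ Finset.range s, (p - 1) ^ j) i = ⊥ := by
  induction s with
  | zero => intro A _ h i; exact h i
  | succ s ih =>
    intro A H h i
    set K := fb A A with hK
    have HK : Gr K := H.der
    have h1 := ih K HK (fun i => by have := h i; rwa [Dit_succ] at this)
    have hIK : Idl A K := H.idl.fb H.idl
    have e : ∑ j ∈ Finset.range (s + 1), (p - 1) ^ j = 1 + (p - 1) * ∑ j ∈ Finset.range s, (p - 1) ^ j := by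
      rw [Finset.sum_range_succ', Finset.mul_sum, add_comm]
      simp only [pow_zero]
      congr 1
      exact Finset.sum_congr rfl fun j _ => by rw [pow_succ, mul_comm]
    rw [e, lcs_one_add, ← hK]
    have h2 : ∀ n i, lcs A K ((p - 1) * n) i ≤ lcs K K n i := by
      intro n
      induction n with
      | zero => intro i; exact le_rfl
      | succ n ihn =>
        intro i
        rw [Nat.mul_succ, lcs_add]
        refine (lcs_mono ihn _ i).trans ?_
        have hle : ∀ j, lcs K K n j ≤ K j := by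
          intro j
          clear ihn
          induction n generalizing j with
          | zero => exact le_rfl
          | succ n ihn => exact (fb_mono ihn (fun _ => le_rfl) j).trans (HK.fb_le j)
        exact lcs_down H (hIK.lcs n) (fun j => (hle j).trans (H.fb_le j)) i
    rw [eq_bot_iff, ← h1 i]
    exact h2 _ i

/-- lower central series of a Lie ring by brackets with everything -/
def Lc (M : Type*) [LieRing M] : ℕ → AddSubgroup M
  | 0 => ⊤
  | n + 1 => AddSubgroup.closure {z | ∃ x y, x ∈ Lc M n ∧ ⁅x, y⁆ = z}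

lemma Lc_le {A : ZMod p → AddSubgroup M} (hA : ∀ x : M, x ∈ ⨆ i, A i) (n : ℕ) :
    Lc M n ≤ ⨆ i, lcs A A n i := by
  induction n with
  | zero => intro x _; exact hA x
  | succ n ih =>
    change AddSubgroup.closure _ ≤ _
    rw [AddSubgroup.closure_le]
    rintro z ⟨x, y, hx, rfl⟩
    have hx' := ih hx
    have hy := hA y
    change ⁅x, y⁆ ∈ (⨆ i, lcs A A (n + 1) i : AddSubgroup M)
    clear hx
    induction hx' using AddSubgroup.iSup_induction' with
    | hp i x hx =>
      induction hy using AddSubgroup.iSup_induction' with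
      | hp j y hy => exact AddSubgroup.mem_iSup_of_mem (i + j) (lie_mem_fb hx hy)
      | h1 => rw [lie_zero]; exact AddSubgroup.zero_mem _
      | hadd a b _ _ h1 h2 => rw [lie_add]; exact AddSubgroup.add_mem _ h1 h2
    | h1 => rw [zero_lie]; exact AddSubgroup.zero_mem _
    | hadd a b _ _ h1 h2 => rw [add_lie]; exact AddSubgroup.add_mem _ h1 h2

lemma zthree : ∀ r u v : ZMod 3, r = 0 ∨ u = 0 ∨ v = 0 ∨ r + u = 0 ∨ r + u + v = 0 ∨ (u + v = 0 ∧ r + v = 0) := by
  decide

theorem lcs_three {A : ZMod 3 → AddSubgroup M} (H : Gr A) (i : ZMod 3) : lcs A A 2 i = ⊥ := by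
  rw [eq_bot_iff]
  refine lcs_le_of_nc (D := fun _ => ⊥) 2 (fun r x l hl hlen hx => ?_) i
  match l, hlen with
  | [a, b], _ =>
    have ha : a.2 ∈ A a.1 := hl a (by simp)
    have hb : b.2 ∈ A b.1 := hl b (by simp)
    simp only [nc_cons]
    change ⁅⁅x, a.2⁆, b.2⁆ ∈ (⊥ : AddSubgroup M)
    rw [AddSubgroup.mem_bot]
    have z0 : ∀ {y : M}, y ∈ A 0 → y = 0 := fun {y} hy => by rwa [H.zero, AddSubgroup.mem_bot] at hy
    have h1 := H.lie _ _ _ _ hx ha
    have h2 := H.lie _ _ _ _ h1 hb
    have h3 := H.lie _ _ _ _ ha hb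
    have h4 := H.lie _ _ _ _ hx hb
    have key : r = 0 ∨ a.1 = 0 ∨ b.1 = 0 ∨ r + a.1 = 0 ∨ r + a.1 + b.1 = 0 ∨ (a.1 + b.1 = 0 ∧ r + b.1 = 0) := by
      exact zthree r a.1 b.1
    rcases key with h | h | h | h | h | ⟨h, h'⟩
    · rw [h] at hx; rw [z0 hx, zero_lie, zero_lie]
    · rw [h] at ha; rw [z0 ha, lie_zero, zero_lie]
    · rw [h] at hb; rw [z0 hb, lie_zero]
    · rw [h] at h1; rw [z0 h1, zero_lie]
    · rw [h] at h2; exact z0 h2
    · rw [h] at h3
      rw [h'] at h4
      rw [lie_lie, z0 h3, z0 h4, lie_zero, lie_zero, sub_zero]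

theorem hkk {A : ZMod p → AddSubgroup M} (H : Gr A) (i : ZMod p) :
    lcs A A (∑ j ∈ Finset.range (2 ^ (p - 1) - 1), (p - 1) ^ j) i = ⊥ :=
  class_bound _ A H (kreknin_top H) i

end kostrikin

end Cfsg.Agent.HKK
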