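import Cfsg.Agent.HKK.LieG
import Cfsg.Agent.HKK.Grad

set_option autoImplicit false

/-!
Automorphisms of the graded Lie ring, extension of scalars, eigenspaces.
-/

namespace Cfsg.Agent.HKK

open Subgroup
open scoped DirectSum commutatorElement TensorProduct

variable {G : Type*} [Group G] {F : ℕ → Subgroup G} [H : Fact (NS F)]

/-- the map induced on a graded piece -/
noncomputable def phiV (α : G →* G) (hα : ∀ i x, x ∈ F i → α x ∈ F i) (i : ℕ) : Vq F i →+ Vq F i :=
  liftV (fun x => mkv i ⟨α x, hα i x x.2⟩) (by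
    intro x y
    rw [← mkv_mul]
    congr 1
    apply Subtype.ext
    simp only [coe_mul, map_mul]) (by
    intro x hx
    rw [mkv_eq_zero]
    exact hα _ _ hx)

/-- the map induced on the Lie ring -/
noncomputable def phi (α : G →* G) (hα : ∀ i x, x ∈ F i → α x ∈ F i) : LR F →+ LR F :=
  DirectSum.toAddMonoid fun i => (ofV i).comp (phiV α hα i)

lemma phi_el (α : G →* G) (hα : ∀ i x, x ∈ F i → α x ∈ F i) (i : ℕ) (x : F i) :
    phi α hα (el i x) = el i ⟨α x, hα i x x.2⟩ := by
  have h1 : phi α hα (ofV i (mkv i x)) = ((ofV (F := F) i).comp (phiV α hα i)) (mkv i x) :=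
    DirectSum.toAddMonoid_of _ i (mkv i x)
  exact h1

lemma phi_lie (α : G →* G) (hα : ∀ i x, x ∈ F i → α x ∈ F i) (x y : LR F) :
    phi α hα ⁅x, y⁆ = ⁅phi α hα x, phi α hα y⁆ := by
  rw [lie_def, lie_def]
  induction x using el_ind with
  | h0 => simp
  | hadd a b ha hb => rw [map_add brL, AddMonoidHom.add_apply, map_add, ha, hb, map_add (phi α hα), map_add brL, AddMonoidHom.add_apply]
  | hof m x =>
    induction y using el_ind with
    | h0 => simp
    | hadd a b ha hb => rw [map_add, map_add, ha, hb, map_add (phi α hα) a, map_add]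
    | hof n y =>
      rw [brL_el m n (m + n + 1) rfl, phi_el, phi_el, phi_el, brL_el m n (m + n + 1) rfl]
      congr 1
      apply Subtype.ext
      simp only [map_commutatorElement]

/-- the norm vanishes on elements of the form `g⁻¹ α g` -/
lemma sum_phi (α : G →* G) (hα : ∀ i x, x ∈ F i → α x ∈ F i) (i : ℕ) (x : F i) (g : G)
    (hg : (x : G) = g⁻¹ * α g) (n : ℕ) :
    ∃ h : g⁻¹ * (α^[n] g) ∈ F i, ∑ s ∈ Finset.range n, (phi α hα)^[s] (el i x) = el i ⟨g⁻¹ * (α^[n] g), h⟩ := by
  have hit : ∀ s, ∃ h : α^[s] (x : G) ∈ F i, (phi α hα)^[s] (el i x) = el i ⟨α^[s] (x : G), h⟩ := by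
    intro s
    induction s with
    | zero => exact ⟨x.2, rfl⟩
    | succ s ih =>
      obtain ⟨h, h'⟩ := ih
      refine ⟨by rw [Function.iterate_succ_apply']; exact hα _ _ h, ?_⟩
      rw [Function.iterate_succ_apply', h', phi_el]
      congr 1
      apply Subtype.ext
      simp only [Function.iterate_succ_apply']
  induction n with
  | zero =>
    refine ⟨by simp, ?_⟩
    rw [Finset.sum_range_zero, eq_comm, el_eq_zero]
    simp
  | succ n ih =>
    obtain ⟨h, h'⟩ := ih
    obtain ⟨h2, h3⟩ := hit n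
    have e : g⁻¹ * (α^[n + 1] g) = (g⁻¹ * (α^[n] g)) * (α^[n] (x : G)) := by
      rw [hg, Function.iterate_succ_apply]
      rw [iterate_map_mul, iterate_map_inv]
      group
    refine ⟨by rw [e]; exact mul_mem h h2, ?_⟩
    rw [Finset.sum_range_succ, h', h3, ← el_mul]
    congr 1
    apply Subtype.ext
    exact e.symm

end Cfsg.Agent.HKK
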