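import Cfsg.Agent.HKK.Grad

set_option autoImplicit false

/-!
Extension of scalars: Lie rings with an automorphism whose norm vanishes.
-/

namespace Cfsg.Agent.HKK

open scoped TensorProduct NumberField

section ext

variable {L : Type*} [LieRing L] {A : Type*} [CommRing A]

lemma tl_add (x y z : A ⊗[ℤ] L) : ⁅x, y + z⁆ = ⁅x, y⁆ + ⁅x, z⁆ := LieRing.lie_add x y z

lemma tl_zero (x : A ⊗[ℤ] L) : ⁅x, (0 : A ⊗[ℤ] L)⁆ = 0 := lie_zero x

lemma tl_smul (a b : A) (x y : A ⊗[ℤ] L) : ⁅a • x, b • y⁆ = (a * b) • ⁅x, y⁆ := by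
  have h1 : ⁅a • x, b • y⁆ = a • ⁅x, b • y⁆ := smul_lie a x (b • y)
  have h2 : ⁅x, b • y⁆ = b • ⁅x, y⁆ := lie_smul b x y
  rw [h1, h2, smul_smul]

variable (A) in
/-- extended map -/
noncomputable def psi (φ : L →+ L) : (A ⊗[ℤ] L) →ₗ[A] (A ⊗[ℤ] L) := (φ.toIntLinearMap).baseChange A

lemma psi_tmul (φ : L →+ L) (a : A) (x : L) : psi A φ (a ⊗ₜ x) = a ⊗ₜ φ x := rfl

lemma psi_lie (φ : L →+ L) (hφ : ∀ x y, φ ⁅x, y⁆ = ⁅φ x, φ y⁆) (x y : A ⊗[ℤ] L) :
    psi A φ ⁅x, y⁆ = ⁅psi A φ x, psi A φ y⁆ := by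
  induction x using TensorProduct.induction_on with
  | zero => simp
  | add a b ha hb => rw [add_lie, map_add, ha, hb, map_add, add_lie]
  | tmul a x =>
    induction y using TensorProduct.induction_on with
    | zero => rw [tl_zero, map_zero, tl_zero]
    | add a b ha hb => rw [tl_add, map_add, ha, hb, map_add, tl_add]
    | tmul b y =>
      rw [psi_tmul, psi_tmul, LieAlgebra.ExtendScalars.bracket_tmul, LieAlgebra.ExtendScalars.bracket_tmul,
        psi_tmul, hφ]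

lemma psi_iter_tmul (φ : L →+ L) (a : A) (x : L) (n : ℕ) : (psi A φ)^[n] (a ⊗ₜ x) = a ⊗ₜ (φ^[n] x) := by
  induction n with
  | zero => rfl
  | succ n ih => rw [Function.iterate_succ_apply', ih, psi_tmul, Function.iterate_succ_apply']

variable {p : ℕ} [hp : Fact p.Prime]

lemma psi_norm (φ : L →+ L) (hN : ∀ x, ∑ s ∈ Finset.range p, φ^[s] x = 0) (y : A ⊗[ℤ] L) :
    ∑ s ∈ Finset.range p, (psi A φ)^[s] y = 0 := by
  induction y using TensorProduct.induction_on with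
  | zero =>
    apply Finset.sum_eq_zero
    intro s _
    exact iterate_map_zero _ _
  | add a b ha hb =>
    have : ∀ s, (psi A φ)^[s] (a + b) = (psi A φ)^[s] a + (psi A φ)^[s] b := fun s => iterate_map_add _ _ _ _
    simp only [this, Finset.sum_add_distrib, ha, hb, add_zero]
  | tmul a x =>
    simp only [psi_iter_tmul]
    rw [← TensorProduct.tmul_sum, hN, TensorProduct.tmul_zero]

lemma psi_pow (φ : L →+ L) (hN : ∀ x, ∑ s ∈ Finset.range p, φ^[s] x = 0) (y : A ⊗[ℤ] L) :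
    (psi A φ)^[p] y = y := by
  have h1 := psi_norm (A := A) φ hN y
  have h2 := psi_norm (A := A) φ hN (psi A φ y)
  have h3 := Finset.sum_range_succ (fun s => (psi A φ)^[s] y) p
  have h4 := Finset.sum_range_succ' (fun s => (psi A φ)^[s] y) p
  simp only [Function.iterate_succ_apply] at h4
  rw [h2, h3, h1] at h4
  simpa using h4

/-- eigenspaces -/
noncomputable def eig (φ : L →+ L) (ζ : A) (i : ZMod p) : AddSubgroup (A ⊗[ℤ] L) where
  carrier := {x | psi A φ x = ζ ^ i.val • x}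
  zero_mem' := by simp
  add_mem' {a b} ha hb := by
    change psi A φ (a + b) = _
    rw [map_add, show psi A φ a = _ from ha, show psi A φ b = _ from hb, smul_add]
  neg_mem' {a} ha := by
    change psi A φ (-a) = _
    rw [map_neg, show psi A φ a = _ from ha, smul_neg]

lemma mem_eig {φ : L →+ L} {ζ : A} {i : ZMod p} {x : A ⊗[ℤ] L} : x ∈ eig φ ζ i ↔ psi A φ x = ζ ^ i.val • x :=
  Iff.rfl

lemma smul_eq_zero_of {φ : L →+ L} {m : ℕ} (hmL : ∀ x : L, m • x = 0) (y : A ⊗[ℤ] L) : m • y = 0 := by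
  induction y using TensorProduct.induction_on with
  | zero => simp
  | add a b ha hb => rw [smul_add, ha, hb, add_zero]
  | tmul a x => rw [← TensorProduct.tmul_smul, hmL, TensorProduct.tmul_zero]

lemma eig_gr {φ : L →+ L} (hφ : ∀ x y, φ ⁅x, y⁆ = ⁅φ x, φ y⁆) {ζ : A} (hζ : ζ ^ p = 1)
    (hN : ∀ x, ∑ s ∈ Finset.range p, φ^[s] x = 0) {m : ℕ} (hm : m.Coprime p) (hmL : ∀ x : L, m • x = 0) :
    Gr (eig (p := p) φ ζ) where
  lie i j x y hx hy := by
    rw [mem_eig] at *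
    rw [psi_lie φ hφ, hx, hy, tl_smul, ← pow_add, ZMod.val_add, ← pow_eq_pow_mod _ hζ]
  zero := by
    rw [eq_bot_iff]
    intro x hx
    rw [mem_eig, ZMod.val_zero, pow_zero, one_smul] at hx
    rw [AddSubgroup.mem_bot]
    have h1 := psi_norm (A := A) φ hN x
    have h2 : ∀ s, (psi A φ)^[s] x = x := fun s => Function.iterate_fixed hx s
    simp only [h2, Finset.sum_const, Finset.card_range] at h1
    have h3 := smul_eq_zero_of (A := A) (φ := φ) hmL x
    have h4 := Nat.isCoprime_iff_coprime.2 hm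
    obtain ⟨a, b, hab⟩ := h4
    have h5 : x = (a * (m : ℤ) + b * (p : ℤ)) • x := by rw [hab, one_smul]
    rw [h5, add_smul, mul_smul, mul_smul, natCast_zsmul, natCast_zsmul, h3, h1, smul_zero, smul_zero, add_zero]

/-- projections onto the eigenspaces -/
noncomputable def proj (φ : L →+ L) (ζ : A) (p : ℕ) (i : ℕ) (y : A ⊗[ℤ] L) : A ⊗[ℤ] L :=
  ∑ s ∈ Finset.range p, ((ζ ^ (p - 1)) ^ i) ^ s • (psi A φ)^[s] y

lemma proj_mem {φ : L →+ L} {ζ : A} (hζ : ζ ^ p = 1)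
    (hN : ∀ x, ∑ s ∈ Finset.range p, φ^[s] x = 0) (i : ZMod p) (y : A ⊗[ℤ] L) : proj φ ζ p i.val y ∈ eig φ ζ i := by
  rw [mem_eig]
  unfold proj
  set ξ := ζ ^ (p - 1) with hξ
  have h1 : ζ * ξ = 1 := by
    rw [hξ, ← pow_succ', Nat.sub_add_cancel hp.out.one_le, hζ]
  have h2 : ζ ^ i.val * ξ ^ i.val = 1 := by rw [← mul_pow, h1, one_pow]
  rw [map_sum]
  set f : ℕ → A ⊗[ℤ] L := fun s => (ξ ^ i.val) ^ s • (psi A φ)^[s] y with hf
  have h3 : ∀ s, psi A φ ((ξ ^ i.val) ^ s • (psi A φ)^[s] y) = ζ ^ i.val • f (s + 1) := by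
    intro s
    rw [map_smul, hf]
    simp only
    rw [smul_smul, pow_succ, mul_comm ((ξ ^ i.val) ^ s), ← mul_assoc, h2, one_mul, Function.iterate_succ_apply']
  have h4 : f p = f 0 := by
    rw [hf]
    simp only [pow_zero, one_smul, Function.iterate_zero, id]
    have h8 : ξ ^ p = 1 := by rw [hξ, ← pow_mul, mul_comm, pow_mul, hζ, one_pow]
    rw [psi_pow φ hN, ← pow_mul, mul_comm, pow_mul, h8, one_pow, one_smul]
  have h5 : ∑ s ∈ Finset.range p, f (s + 1) = ∑ s ∈ Finset.range p, f s := by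
    have h6 := Finset.sum_range_succ f p
    have h7 := Finset.sum_range_succ' f p
    rw [h6, h4] at h7
    exact (add_right_cancel h7).symm
  simp only [h3]
  rw [← Finset.smul_sum, h5]

lemma sum_proj [IsDomain A] {φ : L →+ L} {ζ : A} (hζ : IsPrimitiveRoot ζ p) (y : A ⊗[ℤ] L) :
    ∑ i ∈ Finset.range p, proj φ ζ p i y = p • y := by
  unfold proj
  rw [Finset.sum_comm]
  have h1 : ∀ s ∈ Finset.range p, s ≠ 0 → ∑ i ∈ Finset.range p, ((ζ ^ (p - 1)) ^ i) ^ s • (psi A φ)^[s] y = 0 := by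
    intro s hs hs0
    rw [← Finset.sum_smul]
    have h2 : IsPrimitiveRoot ((ζ ^ (p - 1)) ^ s) p := by
      rw [← pow_mul]
      apply hζ.pow_of_coprime
      rw [Nat.coprime_comm, hp.out.coprime_iff_not_dvd, hp.out.dvd_mul]
      have hp1 := hp.out.one_lt
      rintro (h | h)
      · have := Nat.le_of_dvd (by omega) h; omega
      · have := Nat.le_of_dvd (by omega) h
        have := Finset.mem_range.1 hs
        omega
    have h3 := h2.geom_sum_eq_zero hp.out.one_lt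
    have h4 : ∑ i ∈ Finset.range p, ((ζ ^ (p - 1)) ^ i) ^ s = 0 := by
      rw [← h3]
      exact Finset.sum_congr rfl fun i _ => by rw [← pow_mul, mul_comm i s, pow_mul]
    rw [h4, zero_smul]
  rw [Finset.sum_eq_single_of_mem 0 (Finset.mem_range.2 hp.out.pos) h1]
  simp

lemma eig_top [IsDomain A] {φ : L →+ L} {ζ : A} (hζ : IsPrimitiveRoot ζ p)
    (hN : ∀ x, ∑ s ∈ Finset.range p, φ^[s] x = 0) {m : ℕ} (hm : m.Coprime p) (hmL : ∀ x : L, m • x = 0)
    (y : A ⊗[ℤ] L) : y ∈ ⨆ i : ZMod p, eig φ ζ i := by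
  obtain ⟨a, b, hab⟩ := Nat.isCoprime_iff_coprime.2 hm
  have h3 := smul_eq_zero_of (A := A) (φ := φ) hmL y
  have h5 : y = p • (b • y) := by
    have h6 : y = (a * (m : ℤ) + b * (p : ℤ)) • y := by rw [hab, one_smul]
    rw [add_smul, mul_smul, natCast_zsmul, h3, smul_zero, zero_add, mul_comm, mul_smul, natCast_zsmul] at h6
    exact h6
  rw [h5, ← sum_proj hζ]
  apply AddSubgroup.sum_mem
  intro i hi
  have := proj_mem hζ.pow_eq_one hN (i : ZMod p) (b • y)
  rw [ZMod.val_cast_of_lt (Finset.mem_range.1 hi)] at this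
  exact AddSubgroup.mem_iSup_of_mem _ this

end ext

lemma Lc_tmul {L : Type*} [LieRing L] {A : Type*} [CommRing A] {n : ℕ} {x : L} (hx : x ∈ Lc L n) :
    (1 : A) ⊗ₜ[ℤ] x ∈ Lc (A ⊗[ℤ] L) n := by
  induction n generalizing x with
  | zero => exact AddSubgroup.mem_top _
  | succ n ih =>
    change x ∈ AddSubgroup.closure _ at hx
    change _ ∈ AddSubgroup.closure _
    induction hx using AddSubgroup.closure_induction with
    | mem z hz =>
      obtain ⟨a, b, ha, rfl⟩ := hz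
      apply AddSubgroup.subset_closure
      refine ⟨1 ⊗ₜ a, 1 ⊗ₜ b, ih ha, ?_⟩
      rw [LieAlgebra.ExtendScalars.bracket_tmul, one_mul]
    | zero => rw [TensorProduct.tmul_zero]; exact AddSubgroup.zero_mem _
    | add a b _ _ h1 h2 => rw [TensorProduct.tmul_add]; exact AddSubgroup.add_mem _ h1 h2
    | neg a _ h => rw [TensorProduct.tmul_neg]; exact AddSubgroup.neg_mem _ h

/-- Higman-Kreknin-Kostrikin for Lie rings -/
theorem hkk_lie {L : Type*} [LieRing L] {p : ℕ} [hp : Fact p.Prime] (φ : L →+ L)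
    (hφ : ∀ x y, φ ⁅x, y⁆ = ⁅φ x, φ y⁆) (hN : ∀ x, ∑ s ∈ Finset.range p, φ^[s] x = 0)
    {m : ℕ} (hm : m.Coprime p) (hmL : ∀ x : L, m • x = 0) :
    Lc L (∑ j ∈ Finset.range (2 ^ (p - 1) - 1), (p - 1) ^ j) = ⊥ ∧ (p = 3 → Lc L 2 = ⊥) := by
  have : NeZero p := ⟨hp.out.ne_zero⟩
  have : NeZero ((p : ℕ) : ℚ) := ⟨Nat.cast_ne_zero.2 hp.out.ne_zero⟩
  have hcy : IsCyclotomicExtension {p} ℚ (CyclotomicField p ℚ) := CyclotomicField.isCyclotomicExtension p ℚ
  let A := 𝓞 (CyclotomicField p ℚ)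
  have hζ' := IsCyclotomicExtension.zeta_spec p ℚ (CyclotomicField p ℚ)
  have hζ := hζ'.toInteger_isPrimitiveRoot
  set ζ : A := hζ'.toInteger
  have hinj : Function.Injective (TensorProduct.mk ℤ A L 1) := Module.FaithfullyFlat.tensorProduct_mk_injective L
  have hG : Gr (eig (p := p) φ ζ) := eig_gr hφ hζ.pow_eq_one hN hm hmL
  have hT := fun y => eig_top (p := p) hζ hN hm hmL y
  have key : ∀ n, (∀ i, lcs (eig (p := p) φ ζ) (eig (p := p) φ ζ) n i = ⊥) → Lc L n = ⊥ := by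
    intro n hn
    rw [eq_bot_iff]
    intro x hx
    have h1 := Lc_le hT n (Lc_tmul (A := A) hx)
    have h2 : ⨆ i, lcs (eig (p := p) φ ζ) (eig (p := p) φ ζ) n i = ⊥ := by
      rw [iSup_eq_bot]; exact hn
    rw [h2, AddSubgroup.mem_bot] at h1
    rw [AddSubgroup.mem_bot]
    apply hinj
    rw [map_zero]
    exact h1
  refine ⟨key _ (hkk hG), ?_⟩
  intro h3
  subst h3
  exact key _ (lcs_three hG)

end Cfsg.Agent.HKK
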