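import Mathlib

set_option autoImplicit false

/-!
The graded Lie ring of a group with a central filtration.
-/

namespace Cfsg.Agent.HKK

open Subgroup
open scoped DirectSum commutatorElement

variable {G : Type*} [Group G]

/-- a filtration with `⁅F i, F j⁆ ≤ F (i + j + 1)` -/
structure NS (F : ℕ → Subgroup G) : Prop where
  normal : ∀ i, (F i).Normal
  anti : ∀ i, F (i + 1) ≤ F i
  comm : ∀ i j, ⁅F i, F j⁆ ≤ F (i + j + 1)

variable {F : ℕ → Subgroup G}

lemma NS.le (H : NS F) {i j : ℕ} (h : i ≤ j) : F j ≤ F i := antitone_nat_of_succ_le H.anti h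

lemma NS.comm_mem (H : NS F) {i j : ℕ} {x y : G} (hx : x ∈ F i) (hy : y ∈ F j) : ⁅x, y⁆ ∈ F (i + j + 1) :=
  H.comm i j (commutator_mem_commutator hx hy)

instance nsn [H : Fact (NS F)] (i : ℕ) : ((F (i + 1)).subgroupOf (F i)).Normal := by
  have := H.out.normal (i + 1)
  infer_instance

/-- graded pieces -/
def Vq (F : ℕ → Subgroup G) (i : ℕ) : Type _ := Additive (F i ⧸ (F (i + 1)).subgroupOf (F i))

noncomputable instance [H : Fact (NS F)] (i : ℕ) : AddCommGroup (Vq F i) :=
  letI : Group (F i ⧸ (F (i + 1)).subgroupOf (F i)) := inferInstance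
  letI : CommGroup (F i ⧸ (F (i + 1)).subgroupOf (F i)) :=
    { (inferInstance : Group (F i ⧸ (F (i + 1)).subgroupOf (F i))) with
      mul_comm := by
        intro a b
        induction a using QuotientGroup.induction_on with
        | H a =>
        induction b using QuotientGroup.induction_on with
        | H b =>
          rw [← QuotientGroup.mk_mul, ← QuotientGroup.mk_mul, QuotientGroup.eq, mem_subgroupOf]
          have h1 := H.out.comm_mem (inv_mem b.2) (inv_mem a.2)
          have h2 := H.out.le (show i + 1 ≤ i + i + 1 by omega) h1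
          have e : (((a * b)⁻¹ * (b * a) : F i) : G) = ⁅(b : G)⁻¹, (a : G)⁻¹⁆ := by
            simp only [coe_mul, coe_inv, commutatorElement_def]
            group
          rw [e]
          exact h2 }
  (inferInstance : AddCommGroup (Additive (F i ⧸ (F (i + 1)).subgroupOf (F i))))

variable [H : Fact (NS F)]

/-- the class of an element -/
def mkv (i : ℕ) (x : F i) : Vq F i := Additive.ofMul (QuotientGroup.mk x : F i ⧸ (F (i + 1)).subgroupOf (F i))

lemma mkv_mul {i : ℕ} (x y : F i) : mkv i (x * y) = mkv i x + mkv i y := rfl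

lemma mkv_inv {i : ℕ} (x : F i) : mkv i x⁻¹ = -mkv i x := rfl

lemma mkv_one {i : ℕ} : mkv i (1 : F i) = 0 := rfl

lemma mkv_surj {i : ℕ} (v : Vq F i) : ∃ x : F i, mkv i x = v := by
  induction v using QuotientGroup.induction_on with
  | H x => exact ⟨x, rfl⟩

lemma mkv_eq {i : ℕ} {x y : F i} : mkv i x = mkv i y ↔ (x : G)⁻¹ * y ∈ F (i + 1) := by
  have : (mkv i x = mkv i y) ↔ ((x : F i ⧸ (F (i + 1)).subgroupOf (F i)) = y) := Iff.rfl
  rw [this, QuotientGroup.eq, mem_subgroupOf]
  rfl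

lemma mkv_eq_zero {i : ℕ} {x : F i} : mkv i x = 0 ↔ (x : G) ∈ F (i + 1) := by
  rw [← mkv_one, eq_comm, mkv_eq]
  simp

/-- the class of an element of `G` -/
lemma mkv_congr {i : ℕ} {x y : F i} (h : ((x : G))⁻¹ * y ∈ F (i + 1)) : mkv i x = mkv i y := mkv_eq.2 h

/-- bracket of representatives -/
def bk {m n k : ℕ} (h : m + n + 1 = k) (x : F m) (y : F n) : Vq F k :=
  mkv k ⟨⁅(x : G), (y : G)⁆, h ▸ H.out.comm_mem x.2 y.2⟩

lemma bk_skew {m n k : ℕ} (h : m + n + 1 = k) (h' : n + m + 1 = k) (x : F m) (y : F n) :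
    bk h x y = - bk h' y x := by
  unfold bk
  rw [← mkv_inv]
  congr 1
  apply Subtype.ext
  simp only [coe_inv, commutatorElement_inv]

lemma bk_mul_right {m n k : ℕ} (h : m + n + 1 = k) (x : F m) (a b : F n) :
    bk h x (a * b) = bk h x a + bk h x b := by
  unfold bk
  rw [← mkv_mul]
  apply mkv_congr
  have h1 : ⁅(a : G), ⁅(x : G), (b : G)⁆⁆ ∈ F (k + 1) := by
    have := H.out.comm_mem a.2 (H.out.comm_mem x.2 b.2)
    exact H.out.le (by omega) this
  have h2 := (H.out.normal (k + 1)).conj_mem _ (inv_mem h1) (⁅(x : G), (b : G)⁆)⁻¹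
  have e : (⁅(x : G), ((a * b : F n) : G)⁆)⁻¹ * (⁅(x : G), (a : G)⁆ * ⁅(x : G), (b : G)⁆) =
      (⁅(x : G), (b : G)⁆)⁻¹ * (⁅(a : G), ⁅(x : G), (b : G)⁆⁆)⁻¹ * (⁅(x : G), (b : G)⁆)⁻¹⁻¹ := by
    simp only [coe_mul, commutatorElement_def]
    group
  change (⁅(x : G), ((a * b : F n) : G)⁆)⁻¹ * (⁅(x : G), (a : G)⁆ * ⁅(x : G), (b : G)⁆) ∈ F (k + 1)
  rw [e]
  exact h2

lemma bk_mul_left {m n k : ℕ} (h : m + n + 1 = k) (a b : F m) (x : F n) :
    bk h (a * b) x = bk h a x + bk h b x := by
  have h' : n + m + 1 = k := by omega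
  rw [bk_skew h h', bk_skew h h', bk_skew h h', bk_mul_right]
  abel

lemma bk_eq_zero_right {m n k : ℕ} (h : m + n + 1 = k) (x : F m) (y : F n) (hy : (y : G) ∈ F (n + 1)) :
    bk h x y = 0 := by
  unfold bk
  rw [mkv_eq_zero]
  exact H.out.le (by omega) (H.out.comm_mem x.2 hy)

lemma bk_eq_zero_left {m n k : ℕ} (h : m + n + 1 = k) (x : F m) (y : F n) (hx : (x : G) ∈ F (m + 1)) :
    bk h x y = 0 := by
  have h' : n + m + 1 = k := by omega
  rw [bk_skew h h', bk_eq_zero_right h' _ _ hx, neg_zero]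

/-- lifting functions on `F i` to homomorphisms on `Vq F i` -/
def liftV {A : Type*} [AddCommGroup A] {i : ℕ} (f : F i → A) (hf : ∀ x y, f (x * y) = f x + f y)
    (h0 : ∀ x : F i, (x : G) ∈ F (i + 1) → f x = 0) : Vq F i →+ A :=
  MonoidHom.toAdditiveLeft (QuotientGroup.lift ((F (i + 1)).subgroupOf (F i))
    (MonoidHom.mk' (M := F i) (G := Multiplicative A) (fun y => Multiplicative.ofAdd (f y)) (by
        intro a b
        rw [← ofAdd_add, hf]))
    (by
      intro y hy
      rw [MonoidHom.mem_ker, MonoidHom.mk'_apply, h0 y hy]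
      rfl))

lemma liftV_mk {A : Type*} [AddCommGroup A] {i : ℕ} (f : F i → A) (hf : ∀ x y, f (x * y) = f x + f y)
    (h0 : ∀ x : F i, (x : G) ∈ F (i + 1) → f x = 0) (x : F i) : liftV f hf h0 (mkv i x) = f x := rfl

lemma homV_ext {A : Type*} [AddCommGroup A] {i : ℕ} {f g : Vq F i →+ A} (h : ∀ x, f (mkv i x) = g (mkv i x)) :
    f = g := by
  ext v
  obtain ⟨x, rfl⟩ := mkv_surj v
  exact h x

/-- the bracket on graded pieces -/
noncomputable def brk {m n k : ℕ} (h : m + n + 1 = k) : Vq F m →+ Vq F n →+ Vq F k :=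
  liftV (fun x => liftV (fun y => bk h x y) (bk_mul_right h x) (fun y hy => bk_eq_zero_right h x y hy))
    (by
      intro a b
      apply homV_ext
      intro y
      rw [AddMonoidHom.add_apply, liftV_mk, liftV_mk, liftV_mk, bk_mul_left])
    (by
      intro x hx
      apply homV_ext
      intro y
      rw [liftV_mk, bk_eq_zero_left h x y hx]; rfl)

lemma brk_mk {m n k : ℕ} (h : m + n + 1 = k) (x : F m) (y : F n) : brk h (mkv m x) (mkv n y) =
    mkv k ⟨⁅(x : G), (y : G)⁆, h ▸ H.out.comm_mem x.2 y.2⟩ := rfl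

/-- the Lie ring -/
def LR (F : ℕ → Subgroup G) [Fact (NS F)] : Type _ := ⨁ i, Vq F i

noncomputable instance : AddCommGroup (LR F) := inferInstanceAs (AddCommGroup (⨁ i, Vq F i))

/-- homogeneous elements -/
noncomputable def ofV (i : ℕ) : Vq F i →+ LR F := DirectSum.of (fun i => Vq F i) i

lemma ofV_inj (i : ℕ) : Function.Injective (ofV (F := F) i) := DirectSum.of_injective i

lemma ofV_brk {m n k k' : ℕ} (h : m + n + 1 = k) (h' : m + n + 1 = k') (v : Vq F m) (w : Vq F n) :
    ofV k (brk h v w) = ofV k' (brk h' v w) := by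
  subst h; subst h'; rfl

/-- the bracket as a biadditive map -/
noncomputable def brL : LR F →+ LR F →+ LR F :=
  DirectSum.toAddMonoid fun m => AddMonoidHom.flip (DirectSum.toAddMonoid fun n =>
    AddMonoidHom.flip ((AddMonoidHom.compHom (ofV (m + n + 1))).comp (brk rfl)))

lemma brL_of (m n : ℕ) (v : Vq F m) (w : Vq F n) : brL (ofV m v) (ofV n w) = ofV (m + n + 1) (brk rfl v w) := by
  have h1 : brL (ofV m v) = (AddMonoidHom.flip (DirectSum.toAddMonoid fun n =>
    AddMonoidHom.flip ((AddMonoidHom.compHom (ofV (F := F) (m + n + 1))).comp (brk rfl)))) v :=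
    DirectSum.toAddMonoid_of _ m v
  have h2 := DirectSum.toAddMonoid_of (fun n =>
    AddMonoidHom.flip ((AddMonoidHom.compHom (ofV (F := F) (m + n + 1))).comp (brk rfl))) n w
  have h3 := DFunLike.congr_fun h2 v
  exact (DFunLike.congr_fun h1 _).trans h3

@[elab_as_elim]
lemma LR_ind {P : LR F → Prop} (h0 : P 0) (hof : ∀ i v, P (ofV i v)) (hadd : ∀ x y, P x → P y → P (x + y)) (x : LR F) :
    P x := DirectSum.induction_on x h0 hof hadd

/-- the class of an element of `F i` in the Lie ring -/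
noncomputable def el (i : ℕ) (x : F i) : LR F := ofV i (mkv i x)

lemma brL_el (m n k : ℕ) (h : m + n + 1 = k) (x : F m) (y : F n) :
    brL (el m x) (el n y) = el k ⟨⁅(x : G), (y : G)⁆, h ▸ H.out.comm_mem x.2 y.2⟩ := by
  subst h
  exact brL_of m n _ _

lemma el_mul {i : ℕ} (x y : F i) : el i (x * y) = el i x + el i y := by
  unfold el; rw [mkv_mul, map_add]

lemma el_inv {i : ℕ} (x : F i) : el i x⁻¹ = - el i x := by
  unfold el; rw [mkv_inv, map_neg]

lemma el_one {i : ℕ} : el i (1 : F i) = 0 := by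
  unfold el; rw [mkv_one, map_zero]

lemma el_eq {i : ℕ} {x y : F i} : el i x = el i y ↔ (x : G)⁻¹ * y ∈ F (i + 1) := by
  unfold el; rw [(ofV_inj i).eq_iff, mkv_eq]

lemma el_eq_zero {i : ℕ} {x : F i} : el i x = 0 ↔ (x : G) ∈ F (i + 1) := by
  rw [← el_one, eq_comm, el_eq]
  simp

@[elab_as_elim]
lemma el_ind {P : LR F → Prop} (h0 : P 0) (hof : ∀ i x, P (el i x)) (hadd : ∀ x y, P x → P y → P (x + y))
    (x : LR F) : P x :=
  LR_ind h0 (fun i v => by obtain ⟨x, rfl⟩ := mkv_surj v; exact hof i x) hadd x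

lemma brL_skew (x y : LR F) : brL x y = - brL y x := by
  induction x using el_ind with
  | h0 => simp
  | hadd a b ha hb => rw [map_add, AddMonoidHom.add_apply, ha, hb, map_add]; abel
  | hof m x =>
    induction y using el_ind with
    | h0 => simp
    | hadd a b ha hb => rw [map_add, AddMonoidHom.map_add, ha, hb, AddMonoidHom.add_apply]; abel
    | hof n y =>
      rw [brL_el m n (m + n + 1) rfl, brL_el n m (m + n + 1) (by omega), ← el_inv]
      congr 1
      apply Subtype.ext
      simp only [coe_inv, commutatorElement_inv]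

lemma brL_self (x : LR F) : brL x x = 0 := by
  induction x using el_ind with
  | h0 => simp
  | hadd a b ha hb =>
    rw [map_add (brL (a + b)), map_add brL, AddMonoidHom.add_apply, AddMonoidHom.add_apply, ha, hb, brL_skew b a]
    abel
  | hof m x =>
    rw [brL_el m m (m + m + 1) rfl, el_eq_zero]
    simp only [commutatorElement_self]
    exact one_mem _

/-- Hall-Witt -/
lemma hall_witt (x y z : G) : (y * ⁅⁅y⁻¹, x⁆, z⁆ * y⁻¹) * (z * ⁅⁅z⁻¹, y⁆, x⁆ * z⁻¹) * (x * ⁅⁅x⁻¹, z⁆, y⁆ * x⁻¹) = 1 := by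
  simp only [commutatorElement_def]
  group

lemma el_conj {i j : ℕ} (y : F i) (w : F j) (hw : (y : G) * w * (y : G)⁻¹ ∈ F j) :
    el j ⟨(y : G) * w * (y : G)⁻¹, hw⟩ = el j w := by
  rw [eq_comm, el_eq]
  have h1 := H.out.comm_mem (inv_mem w.2) y.2
  have h2 := H.out.le (show j + 1 ≤ j + i + 1 by omega) h1
  have e : (w : G)⁻¹ * ((y : G) * w * (y : G)⁻¹) = ⁅(w : G)⁻¹, (y : G)⁆ := by
    rw [commutatorElement_def]; group
  rw [e]
  exact h2

/-- double brackets of elements -/
lemma brL_brL_el {a b c k : ℕ} (h : a + b + c + 2 = k) (x : F a) (y : F b) (z : F c)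
    (hm : ⁅⁅(x : G), (y : G)⁆, (z : G)⁆ ∈ F k) :
    brL (brL (el a x) (el b y)) (el c z) = el k ⟨⁅⁅(x : G), (y : G)⁆, (z : G)⁆, hm⟩ := by
  rw [brL_el a b (a + b + 1) rfl, brL_el (a + b + 1) c k (by omega)]

lemma mem3 {a b c k : ℕ} (h : a + b + c + 2 = k) (x : F a) (y : F b) (z : F c) :
    ⁅⁅(x : G), (y : G)⁆, (z : G)⁆ ∈ F k := by
  have := H.out.comm_mem (H.out.comm_mem x.2 y.2) z.2
  have e : a + b + 1 + c + 1 = k := by omega
  rwa [e] at this

lemma jac_el {a b c : ℕ} (x : F a) (y : F b) (z : F c) :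
    brL (brL (el b y) (el a x)) (el c z) + brL (brL (el c z) (el b y)) (el a x) +
      brL (brL (el a x) (el c z)) (el b y) = 0 := by
  obtain ⟨k, hk⟩ : ∃ k, k = a + b + c + 2 := ⟨_, rfl⟩
  have m1 := mem3 (show b + a + c + 2 = k by omega) y⁻¹ x z
  have m2 := mem3 (show c + b + a + 2 = k by omega) z⁻¹ y x
  have m3 := mem3 (show a + c + b + 2 = k by omega) x⁻¹ z y
  have n1 := (H.out.normal k).conj_mem _ m1 (y : G)
  have n2 := (H.out.normal k).conj_mem _ m2 (z : G)
  have n3 := (H.out.normal k).conj_mem _ m3 (x : G)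
  have h1 := brL_brL_el (show b + a + c + 2 = k by omega) y⁻¹ x z m1
  have h2 := brL_brL_el (show c + b + a + 2 = k by omega) z⁻¹ y x m2
  have h3 := brL_brL_el (show a + c + b + 2 = k by omega) x⁻¹ z y m3
  have k1 := el_conj y ⟨_, m1⟩ n1
  have k2 := el_conj z ⟨_, m2⟩ n2
  have k3 := el_conj x ⟨_, m3⟩ n3
  rw [← k1] at h1
  rw [← k2] at h2
  rw [← k3] at h3
  have h4 : el k ⟨_, n1⟩ + el k ⟨_, n2⟩ + el k ⟨_, n3⟩ = 0 := by
    rw [← el_mul, ← el_mul, el_eq_zero]
    have := hall_witt (x : G) (y : G) (z : G)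
    simp only [coe_inv, coe_mul]
    rw [this]
    exact one_mem _
  rw [← h1, ← h2, ← h3] at h4
  simp only [el_inv, map_neg, AddMonoidHom.neg_apply] at h4
  rw [← neg_eq_zero, neg_add, neg_add]
  exact h4

lemma jac (x y z : LR F) : brL (brL y x) z + brL (brL z y) x + brL (brL x z) y = 0 := by
  induction x using el_ind with
  | h0 => simp
  | hadd x x' hx hx' =>
    simp only [map_add, AddMonoidHom.add_apply]
    rw [← add_zero (0 : LR F)]
    nth_rewrite 1 [← hx]
    rw [← hx']
    abel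
  | hof a x =>
    induction y using el_ind with
    | h0 => simp
    | hadd y y' hx hx' =>
      simp only [map_add, AddMonoidHom.add_apply]
      rw [← add_zero (0 : LR F)]
      nth_rewrite 1 [← hx]
      rw [← hx']
      abel
    | hof b y =>
      induction z using el_ind with
      | h0 => simp
      | hadd z z' hx hx' =>
        simp only [map_add, AddMonoidHom.add_apply]
        rw [← add_zero (0 : LR F)]
        nth_rewrite 1 [← hx]
        rw [← hx']
        abel
      | hof c z => exact jac_el x y z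

noncomputable instance : LieRing (LR F) where
  bracket x y := brL x y
  add_lie x y z := by change brL (x + y) z = brL x z + brL y z; rw [map_add, AddMonoidHom.add_apply]
  lie_add x y z := by change brL x (y + z) = brL x y + brL x z; rw [map_add]
  lie_self x := brL_self x
  leibniz_lie x y z := by
    change brL x (brL y z) = brL (brL x y) z + brL y (brL x z)
    have := jac x y z
    rw [brL_skew x (brL y z), brL_skew x y, brL_skew y (brL x z), brL_skew y z]
    simp only [map_neg, AddMonoidHom.neg_apply, neg_neg]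
    rw [← sub_eq_zero, ← this]
    abel

lemma lie_def (x y : LR F) : ⁅x, y⁆ = brL x y := rfl

end Cfsg.Agent.HKK
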